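import Cfsg.Agent.H35.TI.McLCent

/-!
# The Sylow 5-subgroups of the McLaughlin group are TI; the count modulo `|R|` (helper345)

* `ti` : for `1 ≠ x ∈ P5`, `g x g⁻¹ ∈ P5`, `g` normalizes `P5`; `norm_dvd` : `|N(P5)|` divides `3000`;
* `n5` : for `T ≤ McL`, `5 ^ k ∣ |T|`: `|T| = y z`, `y ∣ 3000`, `5 ^ k ∣ y`, `z ≡ 1 (mod 5 ^ k)`.
-/

set_option autoImplicit false
set_option maxRecDepth 100000

namespace Cfsg.Agent.H345.S8.McLTI

open Subgroup Cfsg.Agent.McLType.X275 Cfsg.Agent.H35.TI Cfsg.Agent.H686.Odd.McL Cfsg.Agent.H58.McLOdd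
  Cfsg.Agent.H729.TI

/-! ### general -/

/-- **the count**: a subgroup `R ≤ T`, `R ≤ S`, `S` TI and the only `5`-subgroup of its normalizer -/
theorem count {G : Type*} [Group G] [Finite G] {S T R : Subgroup G} (hRT : R ≤ T) (hRS : R ≤ S)
    (hti : ∀ g x : G, x ∈ S → x ≠ 1 → g * x * g⁻¹ ∈ S → g ∈ normalizer (S : Set G))
    (hsyl : ∀ x : G, x ∈ normalizer (S : Set G) → (∃ r ∈ R, IsConj r x) → x ∈ S) :
    ∃ z : ℕ, Nat.card T = Nat.card ↥(T ⊓ normalizer (S : Set G)) * z ∧ z ≡ 1 [MOD Nat.card R] := by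
  classical
  set N : Subgroup G := T ⊓ normalizer (S : Set G) with hN
  have := Fintype.ofFinite G
  let N' : Subgroup T := N.subgroupOf T
  let _ : MulAction R (T ⧸ N') := MulAction.compHom (T ⧸ N') (Subgroup.inclusion hRT)
  have := Fintype.ofFinite R
  have := Fintype.ofFinite (T ⧸ N')
  have hsm : ∀ (r : R) (t : T), r • (QuotientGroup.mk t : T ⧸ N') = QuotientGroup.mk (Subgroup.inclusion hRT r * t) :=
    fun _ _ => rfl
  -- the fixed points of a nontrivial element
  have hfix : ∀ r : R, r ≠ 1 → Nat.card (MulAction.fixedBy (T ⧸ N') r) = 1 := by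
    intro r hr
    rw [Nat.card_eq_one_iff_unique]
    refine ⟨⟨?_⟩, ⟨⟨QuotientGroup.mk 1, ?_⟩⟩⟩
    · have key : ∀ q : MulAction.fixedBy (T ⧸ N') r, (q : T ⧸ N') = QuotientGroup.mk 1 := by
        rintro ⟨q, hq⟩
        obtain ⟨t, rfl⟩ := QuotientGroup.mk_surjective q
        rw [MulAction.mem_fixedBy, hsm] at hq
        have h1 := QuotientGroup.eq.1 hq.symm
        have h2 : (t : G)⁻¹ * ((r : G) * t) ∈ N := h1
        show QuotientGroup.mk t = QuotientGroup.mk 1
        refine (QuotientGroup.eq.2 ?_).symm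
        show (1 : G)⁻¹ * (t : G) ∈ N
        have h3 : (t : G)⁻¹ * ((r : G) * t) ∈ S := by
          refine hsyl _ h2.2 ⟨r, r.2, isConj_iff.2 ⟨(t : G)⁻¹, ?_⟩⟩
          group
        have h4 : (t : G)⁻¹ ∈ normalizer (S : Set G) := by
          refine hti _ (r : G) (hRS r.2) (fun h => hr (Subtype.ext h)) ?_
          have h5 : (t : G)⁻¹ * (r : G) * ((t : G)⁻¹)⁻¹ = (t : G)⁻¹ * ((r : G) * t) := by group
          rw [h5]
          exact h3
        have h5 : (1 : G)⁻¹ * (t : G) = ((t : G)⁻¹)⁻¹ := by group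
        rw [h5]
        exact N.inv_mem ⟨T.inv_mem t.2, h4⟩
      intro x y
      exact Subtype.ext (by rw [key x, key y])
    · rw [MulAction.mem_fixedBy, hsm]
      refine (QuotientGroup.eq.2 ?_).symm
      show (1 : G)⁻¹ * ((r : G) * 1) ∈ N
      have h5 : (1 : G)⁻¹ * ((r : G) * 1) = r := by group
      rw [h5]
      exact ⟨hRT r.2, le_normalizer (hRS r.2)⟩
  have hb := MulAction.sum_card_fixedBy_eq_card_orbits_mul_card_group R (T ⧸ N')
  have h1 : Fintype.card (MulAction.fixedBy (T ⧸ N') (1 : R)) = Nat.card (T ⧸ N') := by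
    rw [← Nat.card_eq_fintype_card]
    refine Nat.card_congr (Equiv.subtypeUnivEquiv fun q => ?_)
    exact one_smul R q
  rw [← Finset.add_sum_erase _ _ (Finset.mem_univ (1 : R)), h1, Finset.sum_congr rfl (g := fun _ => 1) (fun r hr => by
    rw [← Nat.card_eq_fintype_card]
    exact hfix r (Finset.ne_of_mem_erase hr)), Finset.sum_const, Finset.card_erase_of_mem (Finset.mem_univ _),
    Finset.card_univ, smul_eq_mul, mul_one] at hb
  refine ⟨Nat.card (T ⧸ N'), ?_, ?_⟩
  · have h2 : Nat.card N' * N'.index = Nat.card T := N'.card_mul_index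
    rw [← h2, Nat.card_congr (Subgroup.subgroupOfEquivOfLe (inf_le_left : N ≤ T)).toEquiv]
    rfl
  · rw [Nat.card_eq_fintype_card (α := R)]
    have hpos : 0 < Fintype.card R := Fintype.card_pos
    have h3 : Nat.card (T ⧸ N') + Fintype.card R = 1 + (Fintype.card (Quotient (MulAction.orbitRel R (T ⧸ N'))) * Fintype.card R) := by
      omega
    have h4 : Nat.card (T ⧸ N') + Fintype.card R ≡ 1 + 0 [MOD Fintype.card R] := by
      rw [h3]
      exact Nat.ModEq.add_left 1 ((Nat.modEq_zero_iff_dvd).2 (dvd_mul_left _ _))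
    have h5 : Nat.card (T ⧸ N') + Fintype.card R ≡ Nat.card (T ⧸ N') + 0 [MOD Fintype.card R] :=
      Nat.ModEq.add_left _ ((Nat.modEq_zero_iff_dvd).2 dvd_rfl)
    simpa using h5.symm.trans h4

/-! ### `P5` -/

/-- noncentral elements of `P5` -/
theorem card_cent_eq {g : G1} (hg : g ∈ P5) (hg' : g ∉ zpowers c) : Nat.card (centralizer ({g} : Set G1)) = 25 :=
  (card_cent_noncentral hg hg').trans card_a

theorem card_conj {G : Type*} [Group G] (g x : G) :
    Nat.card (centralizer ({g * x * g⁻¹} : Set G)) = Nat.card (centralizer ({x} : Set G)) := by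
  refine (Nat.card_congr (((MulAut.conj g).subgroupMap (centralizer ({x} : Set G))).toEquiv.trans (Equiv.setCongr ?_))).symm
  ext y
  simp only [SetLike.mem_coe, mem_map, mem_centralizer_singleton_iff]
  constructor
  · rintro ⟨w, hw, rfl⟩
    show g * w * g⁻¹ * (g * x * g⁻¹) = g * x * g⁻¹ * (g * w * g⁻¹)
    calc g * w * g⁻¹ * (g * x * g⁻¹) = g * (w * x) * g⁻¹ := by group
      _ = g * (x * w) * g⁻¹ := by rw [hw]
      _ = _ := by group
  · intro hy
    refine ⟨g⁻¹ * y * g, ?_, ?_⟩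
    · calc g⁻¹ * y * g * x = g⁻¹ * (y * (g * x * g⁻¹)) * g := by group
        _ = g⁻¹ * (g * x * g⁻¹ * y) * g := by rw [hy]
        _ = _ := by group
    · show g * (g⁻¹ * y * g) * g⁻¹ = y
      group

/-- the elements of `zpowers c` -/
theorem cent_of_zpow {x : G1} (hx : x ∈ zpowers c) (hx1 : x ≠ 1) : centralizer ({x} : Set G1) = centralizer ({c} : Set G1) := by
  have h1 : zpowers x = zpowers c := by
    refine Subgroup.eq_of_le_of_card_ge (zpowers_le.2 hx) ?_
    rw [Nat.card_zpowers, Nat.card_zpowers, order_c]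
    have h2 : orderOf x ∣ 5 := by
      have h3 := order_dvd hx
      rwa [Nat.card_zpowers, order_c] at h3
    rcases (Nat.dvd_prime Nat.prime_five).1 h2 with h3 | h3
    · exact absurd (orderOf_eq_one_iff.1 h3) hx1
    · exact h3.ge
  have key : ∀ u v : G1, u ∈ zpowers v → centralizer ({v} : Set G1) ≤ centralizer ({u} : Set G1) := by
    rintro u v ⟨k, rfl⟩ w hw
    rw [mem_centralizer_singleton_iff] at hw ⊢
    exact ((show Commute w v from hw).zpow_right k).eq
  refine le_antisymm (key c x ?_) (key x c hx)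
  rw [h1]
  exact mem_zpowers c

theorem card_cent_of_zpow {x : G1} (hx : x ∈ zpowers c) (hx1 : x ≠ 1) : Nat.card (centralizer ({x} : Set G1)) = 750 := by
  rw [cent_of_zpow hx hx1, H35.TI.card_c]

/-- a group element normalizing the set of the elements of order dividing 125 in `C(c)` -/
theorem conj_c {g : G1} (h : g * c * g⁻¹ ∈ P5) : g ∈ normalizer (P5 : Set G1) := by
  have hc : g * c * g⁻¹ ∈ zpowers c := by
    by_contra h1
    have h2 := card_cent_eq h h1
    rw [card_conj, H35.TI.card_c] at h2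
    omega
  have hne : g * c * g⁻¹ ≠ 1 := by
    intro h1
    apply c_ne
    have h2 : c = g⁻¹ * (g * c * g⁻¹) * g := by group
    rw [h2, h1]
    group
  have hcen := cent_of_zpow hc hne
  have hle : P5.map (MulAut.conj g).toMonoidHom ≤ P5 := by
    rintro _ ⟨x, hx, rfl⟩
    show g * x * g⁻¹ ∈ P5
    refine mem_P5 ?_ ?_
    · have h1 : g * x * g⁻¹ ∈ centralizer ({g * c * g⁻¹} : Set G1) := by
        rw [mem_centralizer_singleton_iff]
        have h2 : x * c = c * x := mem_centralizer_singleton_iff.1 (closure_le_c hx)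
        calc g * x * g⁻¹ * (g * c * g⁻¹) = g * (x * c) * g⁻¹ := by group
          _ = g * (c * x) * g⁻¹ := by rw [h2]
          _ = _ := by group
      rw [hcen] at h1
      exact mem_centralizer_singleton_iff.1 h1
    · have h1 : x ^ 125 = 1 := by
        rw [← card_P5]
        exact orderOf_dvd_iff_pow_eq_one.1 (order_dvd hx)
      rw [conj_pow, h1]
      group
  have heq : P5.map (MulAut.conj g).toMonoidHom = P5 := by
    apply Subgroup.eq_of_le_of_card_ge hle
    rw [Subgroup.card_map_of_injective (MulAut.conj g).injective]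
  rw [mem_normalizer_iff]
  intro x
  constructor
  · intro hx
    exact hle ⟨x, hx, rfl⟩
  · intro hx
    have h3 : g * x * g⁻¹ ∈ P5.map (MulAut.conj g).toMonoidHom := by rw [heq]; exact hx
    obtain ⟨x', hx', h4⟩ := h3
    have h5 : x' = x := (MulAut.conj g).injective h4
    rwa [← h5]

/-- **TI** -/
theorem ti (g x : G1) (hx : x ∈ P5) (hx1 : x ≠ 1) (h : g * x * g⁻¹ ∈ P5) : g ∈ normalizer (P5 : Set G1) := by
  by_cases hxc : x ∈ zpowers c
  · -- central
    apply conj_c
    have h1 : zpowers x = zpowers c := by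
      refine Subgroup.eq_of_le_of_card_ge (zpowers_le.2 hxc) ?_
      rw [Nat.card_zpowers, Nat.card_zpowers, order_c]
      have h2 : orderOf x ∣ 5 := by
        have h3 := order_dvd hxc
        rwa [Nat.card_zpowers, order_c] at h3
      rcases (Nat.dvd_prime Nat.prime_five).1 h2 with h3 | h3
      · exact absurd (orderOf_eq_one_iff.1 h3) hx1
      · exact h3.ge
    obtain ⟨k, hk⟩ : c ∈ zpowers x := by rw [h1]; exact mem_zpowers c
    have h2 : g * c * g⁻¹ = (g * x * g⁻¹) ^ k := by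
      rw [conj_zpow, ← hk]
    rw [h2]
    exact zpow_mem h k
  · -- noncentral: the centralizer of `g x g⁻¹` is a subgroup of `P5` containing `c` and `g c g⁻¹`
    have hy : g * x * g⁻¹ ∉ zpowers c := by
      intro h1
      have h2 : g * x * g⁻¹ ≠ 1 := by
        intro h3
        apply hx1
        have h4 : x = g⁻¹ * (g * x * g⁻¹) * g := by group
        rw [h4, h3]
        group
      have h3 := card_cent_of_zpow h1 h2
      rw [card_conj, card_cent_eq hx hxc] at h3
      omega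
    set y := g * x * g⁻¹ with hyd
    apply conj_c
    have hcx : x * c = c * x := mem_centralizer_singleton_iff.1 (closure_le_c hx)
    have hcy : y * c = c * y := mem_centralizer_singleton_iff.1 (closure_le_c h)
    have h1 : g * c * g⁻¹ ∈ centralizer ({y} : Set G1) := by
      rw [mem_centralizer_singleton_iff, hyd]
      calc g * c * g⁻¹ * (g * x * g⁻¹) = g * (c * x) * g⁻¹ := by group
        _ = g * (x * c) * g⁻¹ := by rw [hcx]
        _ = _ := by group
    have hab : IsMulCommutative (centralizer ({y} : Set G1)) := by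
      have : Fact (Nat.Prime 5) := ⟨Nat.prime_five⟩
      exact IsPGroup.isMulCommutative_of_card_eq_prime_sq (p := 5) (by rw [card_cent_eq h hy]; norm_num)
    have hc : c ∈ centralizer ({y} : Set G1) := mem_centralizer_singleton_iff.2 hcy.symm
    refine mem_P5 ?_ ?_
    · have h2 := hab.is_comm.comm ⟨g * c * g⁻¹, h1⟩ ⟨c, hc⟩
      exact congrArg Subtype.val h2
    · rw [conj_pow, show 125 = 5 * 25 by norm_num, pow_mul, c_pow, one_pow]
      group

theorem card_G : Nat.card G1 = 898128000 := H904.McLCent.card_L isoMcL_G1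

theorem norm_le : normalizer (P5 : Set G1) ≤ normalizer ((zpowers c : Subgroup G1) : Set G1) := by
  intro g hg
  have key : ∀ g ∈ normalizer (P5 : Set G1), g * c * g⁻¹ ∈ zpowers c := by
    intro g hg
    by_contra h1
    have h2 := card_cent_eq ((mem_normalizer_iff.1 hg c).1 c_mem) h1
    rw [card_conj, H35.TI.card_c] at h2
    omega
  have key2 : ∀ g ∈ normalizer (P5 : Set G1), ∀ x ∈ zpowers c, g * x * g⁻¹ ∈ zpowers c := by
    rintro g hg _ ⟨k, rfl⟩
    show g * c ^ k * g⁻¹ ∈ zpowers c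
    rw [← conj_zpow]
    exact zpow_mem (key g hg) k
  rw [mem_normalizer_iff]
  intro x
  refine ⟨key2 g hg x, fun h => ?_⟩
  have h1 := key2 g⁻¹ (inv_mem hg) _ h
  have h2 : g⁻¹ * (g * x * g⁻¹) * g⁻¹⁻¹ = x := by group
  rwa [h2] at h1

/-- `|N(P5)|` divides `3000` -/
theorem norm_dvd : Nat.card (normalizer (P5 : Set G1)) ∣ 3000 := by
  refine (Subgroup.card_dvd_of_le norm_le).trans ?_
  set N := normalizer ((zpowers c : Subgroup G1) : Set G1) with hN
  let f : N →* MulAut (zpowers c) := (zpowers c).normalizerMonoidHom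
  have h1 : Nat.card f.ker * f.ker.index = Nat.card N := f.ker.card_mul_index
  have h2 : f.ker.index ∣ 4 := by
    rw [Subgroup.index_ker]
    have h3 := Subgroup.card_subgroup_dvd_card f.range
    have h4 : Nat.card (MulAut (zpowers c)) = 4 := by
      rw [IsCyclic.card_mulAut, Nat.card_zpowers, order_c]
      rfl
    rwa [h4] at h3
  have h3 : Nat.card f.ker ∣ 750 := by
    rw [← H35.TI.card_c]
    have h4 : f.ker.map N.subtype ≤ centralizer ({c} : Set G1) := by
      rintro _ ⟨x, hx, rfl⟩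
      rw [mem_centralizer_singleton_iff]
      have h5 := DFunLike.congr_fun (MonoidHom.mem_ker.1 hx) ⟨c, mem_zpowers c⟩
      have h6 : (x : G1) * c * (x : G1)⁻¹ = c := congrArg Subtype.val h5
      show (x : G1) * c = c * x
      calc (x : G1) * c = (x : G1) * c * (x : G1)⁻¹ * x := by group
        _ = c * x := by rw [h6]
    have h5 := Subgroup.card_dvd_of_le h4
    rwa [Subgroup.card_map_of_injective N.subtype_injective] at h5
  rw [← h1]
  exact Nat.mul_dvd_mul h3 h2

theorem mem_of_norm {x : G1} (hx : x ∈ normalizer (P5 : Set G1)) (h : x ^ 125 = 1) : x ∈ P5 := by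
  have hi : (P5.subgroupOf (normalizer (P5 : Set G1))).index ∣ 24 := by
    have h1 := (P5.subgroupOf (normalizer (P5 : Set G1))).card_mul_index
    rw [Nat.card_congr (subgroupOfEquivOfLe (H := P5) le_normalizer).toEquiv, card_P5] at h1
    have h2 := norm_dvd
    rw [← h1] at h2
    exact Nat.dvd_of_mul_dvd_mul_left (by norm_num : 0 < 125) (by simpa using h2)
  have h1 := pow_index_mem (P5.subgroupOf (normalizer (P5 : Set G1))) (⟨x, hx⟩ : normalizer (P5 : Set G1))
  obtain ⟨j, hj⟩ := hi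
  have h2 : x ^ 24 ∈ P5 := by
    rw [hj, pow_mul]
    exact pow_mem (mem_subgroupOf.1 h1) j
  have h3 : (x ^ 24) ^ 99 = x := by
    rw [← pow_mul, show 24 * 99 = 125 * 19 + 1 by norm_num, pow_succ, pow_mul, h, one_pow, one_mul]
  rw [← h3]
  exact pow_mem h2 99

/-- **the count in `G1`** -/
theorem n5' (T : Subgroup G1) {k : ℕ} (hk : 5 ^ k ∣ Nat.card T) :
    ∃ y z : ℕ, Nat.card T = y * z ∧ y ∣ 3000 ∧ 5 ^ k ∣ y ∧ z ≡ 1 [MOD 5 ^ k] := by
  have hF : Fact (Nat.Prime 5) := ⟨Nat.prime_five⟩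
  obtain ⟨K, hKT, hK⟩ := exists_sub (q := 5) (n := k) hk
  have hKp : IsPGroup 5 K := IsPGroup.of_card hK
  obtain ⟨S, hS⟩ := hKp.exists_le_sylow
  have hPp : IsPGroup 5 P5 := IsPGroup.of_card (n := 3) (by rw [card_P5]; norm_num)
  obtain ⟨S0, hS0⟩ := hPp.exists_le_sylow
  have hSc : ∀ S : Sylow 5 G1, Nat.card S = 125 := by
    intro S
    rw [S.card_eq_multiplicity, card_G]
    have h1 : (898128000 : ℕ).factorization 5 = 3 := by
      have h2 : (5 : ℕ) ^ 3 ∣ 898128000 := by norm_num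
      have h3 : ¬ (5 : ℕ) ^ 4 ∣ 898128000 := by norm_num
      have h4 := (Nat.prime_five.pow_dvd_iff_le_factorization (by norm_num : (898128000 : ℕ) ≠ 0)).1 h2
      have h5 : ¬ 4 ≤ (898128000 : ℕ).factorization 5 := fun h =>
        h3 ((Nat.prime_five.pow_dvd_iff_le_factorization (by norm_num)).2 h)
      omega
    rw [h1]
    norm_num
  have hS0' : P5 = S0 := Subgroup.eq_of_le_of_card_ge hS0 (by
    rw [card_P5]
    exact (hSc S0).le)
  obtain ⟨g, hg⟩ := MulAction.exists_smul_eq G1 S S0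
  have hgS : ∀ x ∈ S, g * x * g⁻¹ ∈ P5 := by
    intro x hx
    rw [hS0', ← hg]
    exact Subgroup.smul_mem_pointwise_smul _ _ _ hx
  let φ : G1 →* G1 := (MulAut.conj g).toMonoidHom
  have hφ : Function.Injective φ := (MulAut.conj g).injective
  have hR : Nat.card (K.map φ) = 5 ^ k := by rw [Subgroup.card_map_of_injective hφ, hK]
  have hRT : K.map φ ≤ T.map φ := Subgroup.map_mono hKT
  have hRS : K.map φ ≤ P5 := by
    rintro _ ⟨x, hx, rfl⟩
    exact hgS x (hS hx)
  obtain ⟨z, h1, h2⟩ := count hRT hRS ti (fun x hx hr => by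
    obtain ⟨r, hr, hc⟩ := hr
    refine mem_of_norm hx ?_
    have h3 : r ^ 125 = 1 := by
      rw [← card_P5]
      exact orderOf_dvd_iff_pow_eq_one.1 (order_dvd (hRS hr))
    obtain ⟨w, rfl⟩ := isConj_iff.1 hc
    rw [conj_pow, h3]
    group)
  refine ⟨Nat.card ↥(T.map φ ⊓ normalizer (P5 : Set G1)), z, ?_,
    (Subgroup.card_dvd_of_le inf_le_right).trans norm_dvd, ?_, ?_⟩
  · rw [← h1, Subgroup.card_map_of_injective hφ]
  · rw [← hR]
    exact Subgroup.card_dvd_of_le (le_inf hRT (hRS.trans le_normalizer))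
  · rw [← hR]
    exact h2

/-- **the count in `McL`** -/
theorem n5 {M : Type*} [Group M] (h : Spor.IsoMcL M) (T : Subgroup M) {k : ℕ} (hk : 5 ^ k ∣ Nat.card T) :
    ∃ y z : ℕ, Nat.card T = y * z ∧ y ∣ 3000 ∧ 5 ^ k ∣ y ∧ z ≡ 1 [MOD 5 ^ k] := by
  obtain ⟨e1⟩ := h
  obtain ⟨e2⟩ := isoMcL_G1
  have e := e1.trans e2.symm
  have hc : Nat.card (T.map e.toMonoidHom) = Nat.card T :=
    Subgroup.card_map_of_injective (f := e.toMonoidHom) e.injective
  obtain ⟨y, z, h1, h2, h3, h4⟩ := n5' (T.map e.toMonoidHom) (k := k) (by rw [hc]; exact hk)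
  exact ⟨y, z, by rw [← hc]; exact h1, h2, h3, h4⟩

/-- the numerical test -/
def badF (m k : ℕ) : Bool :=
  [1, 2, 3, 4, 5, 6, 8, 10, 12, 15, 20, 24, 25, 30, 40, 50, 60, 75, 100, 120, 125, 150, 200, 250, 300, 375, 500, 600, 750,
    1000, 1500, 3000].all fun y => !(y % 5 ^ k == 0 && m % y == 0 && (m / y) % 5 ^ k == 1)

theorem divs3000 : ∀ y : ℕ, y ∣ 3000 → y ∈ [1, 2, 3, 4, 5, 6, 8, 10, 12, 15, 20, 24, 25, 30, 40, 50, 60, 75, 100, 120,
    125, 150, 200, 250, 300, 375, 500, 600, 750, 1000, 1500, 3000] := by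
  intro y hy
  have h1 : y ∈ Nat.divisors 3000 := Nat.mem_divisors.2 ⟨hy, by norm_num⟩
  have h2 : Nat.divisors 3000 ⊆ [1, 2, 3, 4, 5, 6, 8, 10, 12, 15, 20, 24, 25, 30, 40, 50, 60, 75, 100, 120,
    125, 150, 200, 250, 300, 375, 500, 600, 750, 1000, 1500, 3000].toFinset := by decide +kernel
  exact List.mem_toFinset.1 (h2 h1)

/-- **the numerical exclusion** -/
theorem not_card {M : Type*} [Group M] (h : Spor.IsoMcL M) {T : Subgroup M} {m k : ℕ} (hm : Nat.card T = m)
    (hk : m % 5 ^ k = 0) (hk0 : k ≠ 0) (hb : badF m k = true) : False := by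
  obtain ⟨y, z, h1, h2, h3, h4⟩ := n5 h T (k := k) (by rw [hm]; exact Nat.dvd_of_mod_eq_zero hk)
  unfold badF at hb
  rw [List.all_eq_true] at hb
  have h5 := hb y (divs3000 y h2)
  rw [Bool.not_eq_true', ← Bool.not_eq_true, Bool.and_eq_true, Bool.and_eq_true, beq_iff_eq, beq_iff_eq, beq_iff_eq] at h5
  have hy : 0 < y := Nat.pos_of_dvd_of_pos h2 (by norm_num)
  refine h5 ⟨⟨Nat.mod_eq_zero_of_dvd h3, ?_⟩, ?_⟩
  · rw [← hm, h1]
    exact Nat.mod_eq_zero_of_dvd (dvd_mul_right _ _)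
  · rw [← hm, h1, Nat.mul_div_cancel_left _ hy]
    have h6 : 1 % 5 ^ k = 1 := Nat.mod_eq_of_lt (Nat.one_lt_pow hk0 (by norm_num))
    rw [← h6]
    exact h4

end Cfsg.Agent.H345.S8.McLTI
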